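import Cfsg.Agent.Lib.Golay.LeechOrders

/-!
Simplicity of the automorphism group of the lattice modulo its centre.
-/

set_option autoImplicit false
set_option linter.style.haveILetI false

namespace Cfsg.Agent.Lib.Golay

open scoped Pointwise
open Cfsg Finset

theorem card_Co1 : Nat.card Spor.Co1 = 4157776806543360000 := by
  have h := Subgroup.card_eq_card_quotient_mul_card_subgroup (Subgroup.center Co0)
  rw [card_center, card_Co0] at h
  show Nat.card (Co0 ⧸ Subgroup.center Co0) = _
  omega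

theorem exists_C23' : ∃ t : Spor.Co1, orderOf t = 23 ∧ ∀ g, g * t = t * g → g ∈ Subgroup.zpowers t := by
  refine ⟨QuotientGroup.mk tEl, ?_, ?_⟩
  · haveI := fact23
    apply orderOf_eq_prime
    · rw [← QuotientGroup.mk_pow, tEl_pow.2 (dvd_refl _)]; rfl
    · intro h
      rcases mk_eq_one.1 h with h1 | h1
      · have := tEl_pow.1 (show tEl ^ 1 = 1 by rw [pow_one]; exact h1)
        omega
      · exact tEl_ne_neg 1 (by rw [pow_one]; exact h1)
  · intro g h
    obtain ⟨g', rfl⟩ := QuotientGroup.mk_surjective g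
    have h0 : (QuotientGroup.mk (g' * tEl) : Spor.Co1) = QuotientGroup.mk (tEl * g') := h
    have h1 : g' * tEl = tEl * g' := by
      rcases mk_eq.1 h0 with h1 | h1
      · exact h1
      · exfalso
        have h2 : g' * tEl * g'⁻¹ = negEl * tEl := by rw [h1]; group
        have h3 : (g' * tEl * g'⁻¹) ^ 23 = 1 := by rw [conj_pow, tEl_pow.2 (dvd_refl _)]; group
        rw [h2, (show Commute negEl tEl from negEl_comm tEl).mul_pow, tEl_pow.2 (dvd_refl _), mul_one,
          negEl_pow_odd (by norm_num)] at h3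
        exact negEl_ne h3
    obtain ⟨j, hj⟩ := comm_tEl h1
    rw [Subgroup.mem_zpowers_iff]
    refine ⟨j, ?_⟩
    rw [zpow_natCast, ← QuotientGroup.mk_pow]
    symm
    exact mk_eq.2 hj

theorem t0_mem : t0 ∈ leechLattice := sg8_mem pa

/-- vectors of norm 64 -/
def X64 (T : Subgroup Co0) : SubMulAction T leechLattice where
  carrier := {w | sqNorm (w : Vec) = 64}
  smul_mem' := by
    intro t w h
    show sqNorm (((t • w : leechLattice)) : Vec) = 64
    have e : (((t • w : leechLattice)) : Vec) = app (t : Co0) w := (app_coe (t : Co0) w).symm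
    rw [e, app_norm _ w.2]; exact h

theorem card_X64 (T : Subgroup Co0) : Nat.card (X64 T) = 398034000 := by
  show {w : leechLattice | sqNorm (w : Vec) = 64}.ncard = 398034000
  rw [ncard_sub _ (fun x => sqNorm x = 64) (fun x => Iff.rfl), c_64]

theorem sgEl_mem (c : {c : Finset GolayPt // IsWord c}) : sgEl c ∈ Sg := ⟨c, c.2, fun _ hx => sgEl_app c hx⟩

theorem Sg_app {s : Co0} (hs : s ∈ Sg) : app s (sg pa 8) = sg pa 8 ∨ app s (sg pa 8) = -sg pa 8 := by
  obtain ⟨c, hc, h⟩ := hs
  rw [h _ (sg8_mem pa)]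
  by_cases h1 : pa ∈ c
  · right; rw [sgn_sg_of_mem h1, sg_neg]
  · left; exact sgn_sg_of_notMem h1 8

theorem Sg_not_normal : ¬ (∀ g : Co0, ∀ s ∈ Sg, g * s * g⁻¹ ∈ Sg) := by
  intro hn
  have h12 : (pt 1 : GolayPt) ≠ pt 2 := by decide
  have hy : x0 + (sg (pt 1) 4 + sg (pt 2) 4) ∈ leechLattice := add_mem x0_mem (sg_add_mem h12 (Or.inl rfl) (Or.inl rfl))
  obtain ⟨g, hg⟩ := T64 hy (by decide +kernel)
  have hg' : app g⁻¹ t0 = x0 + (sg (pt 1) 4 + sg (pt 2) 4) := by rw [← hg, app_inv_app]
  obtain ⟨c, hc, hca, hcb⟩ := exists_word_sep pa_ne_pb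
  have h1 := hn g _ (sgEl_mem ⟨c, hc⟩)
  have ha : (x0 + (sg (pt 1) 4 + sg (pt 2) 4)) pa = 4 := by decide +kernel
  have hb : (x0 + (sg (pt 1) 4 + sg (pt 2) 4)) pb = 4 := by decide +kernel
  have h2 : app (sgEl ⟨c, hc⟩) (x0 + (sg (pt 1) 4 + sg (pt 2) 4)) = app g⁻¹ (app (g * sgEl ⟨c, hc⟩ * g⁻¹) t0) := by
    rw [← app_mul, ← hg', ← app_mul]; congr 1; group
  rw [sgEl_app _ hy] at h2
  rcases Sg_app h1 with h3 | h3
  · have h4 : app (g * sgEl ⟨c, hc⟩ * g⁻¹) t0 = t0 := h3
    rw [h4, hg'] at h2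
    have := congrFun h2 pa
    unfold Golay.sgn at this
    rw [if_pos hca, ha] at this; norm_num at this
  · have h4 : app (g * sgEl ⟨c, hc⟩ * g⁻¹) t0 = -t0 := h3
    rw [h4, app_neg _ t0_mem, hg'] at h2
    have := congrFun h2 pb
    unfold Golay.sgn at this
    rw [if_neg hcb, Pi.neg_apply, hb] at this; norm_num at this

/-- normal 2-subgroups of the automorphism group are central -/
theorem two_normal {T : Subgroup Co0} (hT : IsPGroup 2 T) (hneg : negEl ∈ T) (hn : ∀ g : Co0, ∀ t ∈ T, g * t * g⁻¹ ∈ T) :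
    ∀ t ∈ T, t = 1 ∨ t = negEl := by
  haveI : Fact (Nat.Prime 2) := ⟨Nat.prime_two⟩
  haveI := finCo0
  have h1 := card_two_grp hT (fun x hx => hn tEl x hx) hneg
  obtain ⟨k, hk⟩ := IsPGroup.iff_card.1 hT
  have hdvd : 2 ^ k ∣ 8315553613086720000 := by rw [← hk, ← card_Co0]; exact Subgroup.card_subgroup_dvd_card T
  have hk22 := exp_le 22 hdvd (by norm_num)
  have hk2 : k = 1 ∨ k = 12 := by
    rw [hk] at h1
    interval_cases k <;> revert h1 <;> decide
  have hfin : k = 1 → ∀ t ∈ T, t = 1 ∨ t = negEl := by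
    intro hk1 t ht
    by_contra hcon
    push Not at hcon
    have : ({1, negEl, t} : Set Co0).ncard ≤ (T : Set Co0).ncard := by
      apply Set.ncard_le_ncard _ (Set.toFinite _)
      intro y hy
      rcases hy with rfl | rfl | rfl
      · exact one_mem _
      · exact hneg
      · exact ht
    rw [Set.ncard_eq_three.2 ⟨1, negEl, t, negEl_ne.symm, hcon.1.symm, hcon.2.symm, rfl⟩] at this
    have h4 : (T : Set Co0).ncard = 2 ^ k := hk
    rw [hk1] at h4
    omega
  rcases hk2 with hk1 | hk12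
  · exact hfin hk1
  exfalso
  by_cases hne : ∃ t ∈ T ⊓ monoN, t ≠ 1 ∧ t ≠ negEl
  · have h2 := two64 (T := T ⊓ monoN) (hT.to_le inf_le_left) ⟨hneg, mono_iff.2 ⟨(⟨univ, by simpa using isWord_empty.compl⟩, 1), by
        apply ext_app
        intro x hx
        rw [monoEl_app _ hx, negEl_app' hx]
        ext i
        show (if i ∈ (univ : Finset GolayPt) then -(prm 1 x) i else (prm 1 x) i) = -x i
        rw [if_pos (mem_univ _)]; rfl⟩⟩ inf_le_right
      (fun g hg t ht => ⟨hn g t ht.1, monoN.mul_mem (monoN.mul_mem hg ht.2) (monoN.inv_mem hg)⟩) hne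
    have h3 : Sg ≤ T := by rw [← h2]; exact inf_le_left
    have h4 : Sg = T := Subgroup.eq_of_le_of_card_ge h3 (by rw [hk, hk12, card_Sg]; norm_num)
    apply Sg_not_normal
    intro g s hs
    rw [h4] at hs ⊢
    exact hn g s hs
  · push Not at hne
    haveI : Finite (X64 T) := Nat.finite_of_card_ne_zero (by rw [card_X64]; norm_num)
    have h2 := dvd_card_of_orbits (G := T) (α := X64 T) (2 ^ 12) (by
      intro w
      have h3 := card_orbit_stab (G := T) w
      have h4 : MulAction.stabilizer T w = ⊥ := by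
        rw [eq_bot_iff]
        rintro ⟨t, ht⟩ h5
        rw [Subgroup.mem_bot]
        apply Subtype.ext
        show t = 1
        have h6 : app t (w : leechLattice) = (w : leechLattice) := by
          have := congrArg (fun z : X64 T => ((z : leechLattice) : Vec)) (MulAction.mem_stabilizer_iff.1 h5)
          have e : ((((⟨t, ht⟩ : T) • w : X64 T) : leechLattice) : Vec) = app t (w : leechLattice) := (app_coe t _).symm
          rw [← e]; exact this
        obtain ⟨k, hk⟩ := T64 (w : leechLattice).2 w.2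
        have h7 : app (k * t * k⁻¹) t0 = t0 := by
          have e2 : app k⁻¹ t0 = ((w : leechLattice) : Vec) := by rw [← hk, app_inv_app]
          rw [app_mul, app_mul, e2, h6, hk]
        have h8 : k * t * k⁻¹ ∈ T ⊓ monoN := ⟨hn k t ht, mem_monoN_of (mem_std.2 ⟨pa, Or.inl rfl⟩ : t0 ∈ (stdCross : Set Vec))
          (by rw [h7]; exact mem_std.2 ⟨pa, Or.inl rfl⟩)⟩
        by_cases h9 : k * t * k⁻¹ = 1
        · rw [mul_inv_eq_one, mul_eq_left] at h9; exact h9
        · exfalso
          have h10 := hne _ h8 h9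
          rw [h10, negEl_app' t0_mem] at h7
          have := congrFun h7 pa
          revert this
          decide +kernel
      rw [h4, Subgroup.card_bot, mul_one, hk, hk12] at h3
      rw [h3]; exact dvd_refl _)
    rw [card_X64] at h2
    revert h2; norm_num

theorem isSimple_co1 : IsSimpleGroup Spor.Co1 := by
  haveI := fact23
  haveI := finCo0
  haveI : Finite Spor.Co1 := Nat.finite_of_card_ne_zero (by rw [card_Co1]; norm_num)
  obtain ⟨t, ht, hC⟩ := exists_C23'
  refine FpfCrit.isSimple (p := 23) ht hC (by rw [card_Co1]; norm_num) (by rw [card_Co1]; norm_num) (by rw [card_Co1]; norm_num) ?_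
  intro N hN hp
  have hpg : IsPGroup 2 N := by
    have h2 : ∀ q : ℕ, q.Prime → q ∣ Nat.card N → q = 2 := by
      intro q hq hqN
      obtain ⟨m, hm, hm1, hm2⟩ := FpfCrit.prime_pow ht hC hN hp hq hqN
      rw [card_Co1] at hm1
      exact (num23 hq hm hm1 hm2).1
    refine IsPGroup.of_card (n := (Nat.card N).primeFactorsList.length) ?_
    exact Nat.eq_prime_pow_of_unique_prime_dvd Nat.card_pos.ne' (fun {d} hd hd' => h2 d hd hd')
  have hT := two_normal (T := N.comap (QuotientGroup.mk' (Subgroup.center Co0))) (by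
      rintro ⟨t, ht⟩
      obtain ⟨m, hm⟩ := hpg ⟨_, ht⟩
      refine ⟨m + 1, ?_⟩
      apply Subtype.ext
      show t ^ 2 ^ (m + 1) = 1
      have h1 : (QuotientGroup.mk (t ^ 2 ^ m) : Spor.Co1) = 1 := by
        rw [QuotientGroup.mk_pow]
        exact congrArg Subtype.val hm
      rw [pow_succ, pow_mul]
      rcases mk_eq_one.1 h1 with h2 | h2 <;> rw [h2]
      · rw [one_pow]
      · rw [pow_two, negEl_sq]) (by
      show (QuotientGroup.mk negEl : Spor.Co1) ∈ N
      rw [mk_eq_one.2 (Or.inr rfl)]; exact one_mem _) (by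
      intro g t ht
      have h1 : (QuotientGroup.mk t : Spor.Co1) ∈ N := ht
      show (QuotientGroup.mk (g * t * g⁻¹) : Spor.Co1) ∈ N
      rw [QuotientGroup.mk_mul, QuotientGroup.mk_mul, QuotientGroup.mk_inv]
      exact hN.conj_mem _ h1 _)
  rw [eq_bot_iff]
  intro x hx
  obtain ⟨g, rfl⟩ := QuotientGroup.mk_surjective x
  rw [Subgroup.mem_bot]
  exact mk_eq_one.2 (hT g hx)

end Cfsg.Agent.Lib.Golay
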