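import Cfsg.Agent.Lib.Golay.LeechTwo2
import Cfsg.Agent.Lib.Golay.ElemData

/-!
An automorphism with square minus one.
-/

set_option autoImplicit false

namespace Cfsg.Agent.Lib.Golay

open scoped Pointwise
open Cfsg Finset

def cJ : Finset GolayPt := st 0x271fb
noncomputable def sJ : Equiv.Perm GolayPt := pm cI2

theorem cJ_word : IsWord cJ := (isWord_st (by norm_num)).2 (by decide +kernel)
theorem cI2_ok : valid cI2 = true := by decide +kernel
theorem sJ_mem : sJ ∈ M24 := pm_mem_M24 (by decide +kernel)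

theorem sJ_sJ (p : GolayPt) : sJ (sJ p) = p := by
  apply ix_inj
  unfold sJ
  rw [ix_pm cI2_ok, ix_pm cI2_ok]
  have : ∀ j < 24, img cI2 (img cI2 j) = j := by decide +kernel
  exact this _ (ix_lt p)

theorem sJ_inv (p : GolayPt) : sJ⁻¹ p = sJ p := by
  rw [Equiv.Perm.inv_eq_iff_eq, sJ_sJ]

theorem mem_cJ (p : GolayPt) : sJ p ∈ cJ ↔ p ∉ cJ := by
  unfold cJ sJ
  rw [mem_st, mem_st, ix_pm cI2_ok]
  have : ∀ j < 24, Nat.testBit 0x271fb (img cI2 j) = true ↔ ¬ Nat.testBit 0x271fb j = true := by decide +kernel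
  exact this _ (ix_lt p)

/-- the automorphism -/
noncomputable def J : Vec →+ Vec where
  toFun x := sgn cJ (prm sJ x)
  map_zero' := by ext k; simp [Golay.sgn, prm]
  map_add' x y := by rw [prm_add, sgn_add]

theorem J_apply (x : Vec) : J x = sgn cJ (prm sJ x) := rfl

theorem J_J (x : Vec) : J (J x) = -x := by
  ext k
  rw [J_apply, J_apply]
  show (if k ∈ cJ then -(if sJ⁻¹ k ∈ cJ then -x (sJ⁻¹ (sJ⁻¹ k)) else x (sJ⁻¹ (sJ⁻¹ k))) else
    (if sJ⁻¹ k ∈ cJ then -x (sJ⁻¹ (sJ⁻¹ k)) else x (sJ⁻¹ (sJ⁻¹ k)))) = -x k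
  rw [sJ_inv, sJ_inv, sJ_sJ]
  have := mem_cJ k
  by_cases h : k ∈ cJ
  · rw [if_pos h, if_neg (by rw [this]; exact fun h' => h' h)]
  · rw [if_neg h, if_pos (this.2 h)]

theorem J_mem {x : Vec} (hx : x ∈ leechLattice) : J x ∈ leechLattice := by
  rw [J_apply]
  exact sgn_mem (perm_mem_leech hx (inv_mem sJ_mem)) cJ_word

theorem J_norm (x : Vec) : sqNorm (J x) = sqNorm x := by
  rw [J_apply, sqNorm_sgn]
  unfold sqNorm prm
  exact Equiv.sum_comp sJ⁻¹ (fun i => x i ^ 2)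

theorem J_dot (x : Vec) : dotInt x (J x) = 0 := by
  have h1 := J_norm (x + J x)
  rw [map_add, J_J] at h1
  rw [sqNorm_add, sqNorm_add, J_norm, sqNorm_neg, dotInt_neg_right, dotInt_comm (J x) x] at h1
  omega

/-- multiplication by 1 + i -/
noncomputable def Th : Vec →+ Vec := AddMonoidHom.id Vec + J

theorem Th_apply (x : Vec) : Th x = x + J x := rfl

theorem Th_norm (x : Vec) : sqNorm (Th x) = 2 * sqNorm x := by
  rw [Th_apply, sqNorm_add, J_norm, J_dot]; ring

theorem Th_inj : Function.Injective Th := by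
  rw [injective_iff_map_eq_zero]
  intro x h
  apply sqNorm_eq_zero
  have := Th_norm x
  have h0 : sqNorm (0 : Vec) = 0 := by simp [sqNorm]
  rw [h, h0] at this
  omega

theorem Th_Th (x : Vec) : Th (Th x) = J x + J x := by
  rw [Th_apply, Th_apply, map_add, J_J]; abel

/-- the image of the lattice -/
noncomputable def AJ : AddSubgroup Vec := leechLattice.map Th

theorem AJ_le : AJ ≤ leechLattice := by
  rintro _ ⟨x, hx, rfl⟩
  exact add_mem hx (J_mem hx)

theorem AJ_map : AJ.map Th = L2 := by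
  ext x
  rw [mem_L2]
  constructor
  · rintro ⟨_, ⟨y, hy, rfl⟩, rfl⟩
    exact ⟨J y, J_mem hy, Th_Th y⟩
  · rintro ⟨z, hz, rfl⟩
    have hz' : -J z ∈ leechLattice := neg_mem (J_mem hz)
    refine ⟨Th (-J z), ⟨_, hz', rfl⟩, ?_⟩
    rw [Th_Th, map_neg, J_J, neg_neg]

theorem relIndex_AJ : AJ.relIndex leechLattice = 2 ^ 12 := by
  have h1 : L2 ≤ AJ := by
    rw [← AJ_map]
    rintro _ ⟨y, hy, rfl⟩
    exact ⟨y, AJ_le hy, rfl⟩
  have h2 := AddSubgroup.relIndex_mul_relIndex L2 AJ leechLattice h1 AJ_le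
  have h3 : L2.relIndex AJ = AJ.relIndex leechLattice := by
    rw [← AJ_map]
    exact AddSubgroup.relIndex_map_map_of_injective _ _ Th_inj
  rw [h3, relIndex_L2] at h2
  have h4 : AJ.relIndex leechLattice ^ 2 = (2 ^ 12) ^ 2 := by rw [pow_two, h2]; norm_num
  exact Nat.pow_left_injective (by norm_num : 2 ≠ 0) h4

theorem exists_jEl : ∃ j : Co0, j * j = negEl := by
  obtain ⟨g, hg⟩ := exists_sgn cJ_word
  obtain ⟨h, hh⟩ := exists_prm sJ_mem
  refine ⟨g * h, ?_⟩
  have e : ∀ x ∈ leechLattice, app (g * h) x = J x := by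
    intro x hx
    rw [app_mul, hh x hx, hg _ (by rw [← hh x hx]; exact app_mem _ hx)]; rfl
  apply ext_app
  intro x hx
  rw [app_mul, e x hx, e _ (J_mem hx), J_J, negEl_app' hx]

end Cfsg.Agent.Lib.Golay
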