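import Cfsg.Agent.Lib.Golay.LeechTwo2

/-!
Uniqueness of the invariant quadratic form modulo two.
-/

set_option autoImplicit false
set_option linter.unusedSectionVars false

namespace Cfsg.Agent.Lib.Golay

open scoped Pointwise
open Cfsg Finset

section quad
variable {Q : leechLattice → ZMod 2} (hcoset : ∀ v w : leechLattice, Q (v + (w + w)) = Q v)
  (hquad : ∀ u v w : leechLattice, Q (u + v + w) + Q u + Q v + Q w = Q (u + v) + Q (u + w) + Q (v + w))
  (hinv : ∀ (g : Co0) (v : leechLattice), Q (g • v) = Q v)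
include hcoset hquad hinv

local notation "B" => fun u v => Q (u + v) + Q u + Q v

theorem z2 (a : ZMod 2) : a + a = 0 := CharTwo.add_self_eq_zero a

theorem qB_add (u v w : leechLattice) : Q (u + (v + w)) + Q u + Q (v + w) =
    (Q (u + v) + Q u + Q v) + (Q (u + w) + Q u + Q w) := by
  have h := hquad u v w
  rw [← add_assoc u v w]
  have h2 : (2 : ZMod 2) = 0 := rfl
  linear_combination h + (Q (v + w) - Q u - Q v - Q w) * h2

theorem qneg (v : leechLattice) : Q (-v) = Q v := by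
  have := hcoset v (-v)
  rw [← this]; congr 1; abel

theorem qB_neg (u v : leechLattice) : Q (u + -v) + Q u + Q (-v) = Q (u + v) + Q u + Q v := by
  have h1 := qneg hcoset hquad hinv v
  have h2 : Q (u + -v) = Q (u + v) := by
    have := hcoset (u + v) (-v)
    rw [← this]; congr 1; abel
  rw [h1, h2]

theorem qB_smul (g : Co0) (u v : leechLattice) : Q (g • u + g • v) + Q (g • u) + Q (g • v) = Q (u + v) + Q u + Q v := by
  have : g • u + g • v = g • (u + v) := by
    symm
    apply smul_eq_iff_app.2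
    show app g ((u : Vec) + v) = _
    rw [app_add g u.2 v.2, app_coe, app_coe]; rfl
  rw [this, hinv, hinv, hinv]

theorem qb16 {v w v' w' : leechLattice} (hv : sqNorm (v : Vec) = 32) (hw : sqNorm (w : Vec) = 32)
    (hv' : sqNorm (v' : Vec) = 32) (hw' : sqNorm (w' : Vec) = 32) (h : dotInt (v : Vec) w = -16) (h' : dotInt (v' : Vec) w' = -16) :
    Q (v + w) + Q v + Q w = Q (v' + w') + Q v' + Q w' := by
  obtain ⟨g, g1, g2⟩ := Eqv.two ((T16 v.2 w.2 hv hw h).trans (T16 v'.2 w'.2 hv' hw' h').symm)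
  rw [← g1, ← g2, qB_smul hcoset hquad hinv]

theorem qb8 {v w v' w' : leechLattice} (hv : sqNorm (v : Vec) = 32) (hw : sqNorm (w : Vec) = 32)
    (hv' : sqNorm (v' : Vec) = 32) (hw' : sqNorm (w' : Vec) = 32) (h : dotInt (v : Vec) w = -8) (h' : dotInt (v' : Vec) w' = -8) :
    Q (v + w) + Q v + Q w = Q (v' + w') + Q v' + Q w' := by
  obtain ⟨g, g1, g2⟩ := Eqv.two ((T8 v.2 w.2 hv hw h).trans (T8 v'.2 w'.2 hv' hw' h').symm)
  rw [← g1, ← g2, qB_smul hcoset hquad hinv]

theorem quad_unique (hne : ∃ v : leechLattice, Q v ≠ 0) (v : leechLattice) :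
    Q v = ((sqNorm (v : Vec) / 16 : ℤ) : ZMod 2) := by
  set v0L : leechLattice := ⟨v0, v0_mem⟩
  set x0L : leechLattice := ⟨x0, x0_mem⟩
  have hcC : sg pb 4 + sg (pt 1) 4 ∈ leechLattice := sg_add_mem (by decide) (Or.inl rfl) (Or.inl rfl)
  set cL : leechLattice := ⟨sg pb 4 + sg (pt 1) 4, hcC⟩
  set uL : leechLattice := ⟨rO pa, rO_mem pa⟩
  have hnc : sqNorm (cL : Vec) = 32 := sqNorm_sg_add (by decide) (Or.inl rfl) (Or.inl rfl)
  have hnu : sqNorm (uL : Vec) = 32 := by show sqNorm (rO pa) = 32; decide +kernel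
  have h00 : Q 0 = 0 := by
    have h := hquad 0 0 0
    simp only [add_zero] at h
    have h2 : (2 : ZMod 2) = 0 := rfl
    linear_combination h - (Q 0) * h2 + (Q 0) * h2
  -- product zero
  have b0 : Q (v0L + x0L) + Q v0L + Q x0L = 0 := by
    have e : v0L + x0L = v0L + (cL + -(cL - x0L)) := by abel
    have h1 := qB_add hcoset hquad hinv v0L cL (-(cL - x0L))
    have h2 : cL + -(cL - x0L) = x0L := by abel
    rw [h2, qB_neg hcoset hquad hinv] at h1
    rw [h1, qb16 hcoset hquad hinv (v := v0L) (w := cL) (v' := v0L) (w' := cL - x0L) norm_v0 hnc norm_v0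
      (by show sqNorm ((sg pb 4 + sg (pt 1) 4) - x0) = 32; decide +kernel)
      (by show dotInt v0 (sg pb 4 + sg (pt 1) 4) = -16; decide +kernel)
      (by show dotInt v0 ((sg pb 4 + sg (pt 1) 4) - x0) = -16; decide +kernel)]
    exact z2 hcoset hquad hinv _
  have b16 : ∀ {v w : leechLattice}, sqNorm (v : Vec) = 32 → sqNorm (w : Vec) = 32 → dotInt (v : Vec) w = -16 →
      Q (v + w) + Q v + Q w = 0 := by
    intro v w hv hw h
    rw [qb16 hcoset hquad hinv (v := v) (w := w) (v' := uL) (w' := x0L + -cL) hv hw hnu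
      (by show sqNorm (x0 + -(sg pb 4 + sg (pt 1) 4)) = 32; decide +kernel) h
      (by show dotInt (rO pa) (x0 + -(sg pb 4 + sg (pt 1) 4)) = -16; decide +kernel)]
    rw [qB_add hcoset hquad hinv, qb8 hcoset hquad hinv (v := uL) (w := x0L) (v' := uL) (w' := -cL) hnu norm_x0 hnu
      (by show sqNorm (-(sg pb 4 + sg (pt 1) 4)) = 32; decide +kernel)
      (by show dotInt (rO pa) x0 = -8; decide +kernel)
      (by show dotInt (rO pa) (-(sg pb 4 + sg (pt 1) 4)) = -8; decide +kernel)]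
    exact z2 hcoset hquad hinv _
  have htr : ∀ {v w : leechLattice}, sqNorm (v : Vec) = 32 → sqNorm (w : Vec) = 32 → Q v = Q w := by
    intro v w hv hw
    obtain ⟨g, hg⟩ := Eqv.one ((min_trans v.2 hv).trans (min_trans w.2 hw).symm)
    rw [← hg, hinv]
  have q32 : ∀ {v : leechLattice}, sqNorm (v : Vec) = 32 → Q v = 0 := by
    intro v hv
    have h1 := b16 (v := v0L) (w := cL) norm_v0 hnc (by show dotInt v0 (sg pb 4 + sg (pt 1) 4) = -16; decide +kernel)
    have hn : sqNorm ((v0L + cL : leechLattice) : Vec) = 32 := by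
      show sqNorm (v0 + (sg pb 4 + sg (pt 1) 4)) = 32
      decide +kernel
    rw [htr hn hv, htr (v := v0L) norm_v0 hv, htr hnc hv, z2 hcoset hquad hinv, zero_add] at h1
    exact h1
  have q64 : ∀ {v : leechLattice}, sqNorm (v : Vec) = 64 → Q v = 0 := by
    intro v hv
    obtain ⟨g, hg⟩ := T64 v.2 hv
    have e : g • v = v0L + x0L := smul_eq_iff_app.2 (by rw [hg, t0_eq]; rfl)
    rw [← hinv g, e]
    rw [q32 (v := v0L) norm_v0, q32 (v := x0L) norm_x0, add_zero, add_zero] at b0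
    exact b0
  have q48 : ∀ {v w : leechLattice}, sqNorm (v : Vec) = 48 → sqNorm (w : Vec) = 48 → Q v = Q w := by
    have key : ∀ {v : leechLattice}, sqNorm (v : Vec) = 48 → ∃ a b : leechLattice, sqNorm (a : Vec) = 32 ∧ sqNorm (b : Vec) = 32 ∧
        dotInt (a : Vec) b = -8 ∧ Q v = Q (a + b) + Q a + Q b := by
      intro v hv
      obtain ⟨w, hw, h1, h2⟩ := dec48 v.2 hv
      have h3 := sub_norm hv h1 h2
      refine ⟨⟨w, hw⟩, v - ⟨w, hw⟩, h1, h3, ?_, ?_⟩
      · show dotInt w ((v : Vec) - w) = -8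
        rw [dotInt_sub_right, h2, dotInt_self, h1]; norm_num
      · have e2 : (⟨w, hw⟩ : leechLattice) + (v - ⟨w, hw⟩) = v := by abel
        rw [e2, q32 (v := ⟨w, hw⟩) h1, q32 (v := v - ⟨w, hw⟩) h3, add_zero, add_zero]
    intro v w hv hw
    obtain ⟨a, b, h1, h2, h3, h4⟩ := key hv
    obtain ⟨a', b', h1', h2', h3', h4'⟩ := key hw
    rw [h4, h4', qb8 hcoset hquad hinv h1 h2 h1' h2' h3 h3']
  have hred : ∀ v : leechLattice, ∃ y : leechLattice, Q v = Q y ∧ (sqNorm (y : Vec) = 0 ∨ sqNorm (y : Vec) = 32 ∨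
      sqNorm (y : Vec) = 48 ∨ sqNorm (y : Vec) = 64) ∧ (sqNorm (v : Vec) - sqNorm (y : Vec)) % 32 = 0 := by
    intro v
    obtain ⟨y, hy, hn, u, hu, h⟩ := short_rep v.2
    have e : v = ⟨y, hy⟩ + (⟨u, hu⟩ + ⟨u, hu⟩) := by
      apply Subtype.ext
      show (v : Vec) = y + (u + u)
      rw [← h]; abel
    refine ⟨⟨y, hy⟩, by rw [e, hcoset], hn, ?_⟩
    have e2 : (v : Vec) = y + (u + u) := by rw [← h]; abel
    rw [e2, sqNorm_add, norm_two, dotInt_add_right]
    have h1 := norm16 hu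
    have h2 := norm16 (add_mem hy hu)
    rw [sqNorm_add] at h2
    have h3 := norm16 hy
    show (sqNorm y + 4 * sqNorm u + 2 * (dotInt y u + dotInt y u) - sqNorm y) % 32 = 0
    omega
  have h1 : ∀ {y : leechLattice}, sqNorm (y : Vec) = 48 → Q y = 1 := by
    intro y hy
    obtain ⟨x, hx⟩ := hne
    obtain ⟨x', hx', hn, _⟩ := hred x
    have hx2 : Q x' ≠ 0 := by rw [← hx']; exact hx
    rcases hn with h | h | h | h
    · exfalso
      apply hx2
      have : x' = 0 := Subtype.ext (sqNorm_eq_zero h)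
      rw [this, h00]
    · exact absurd (q32 h) hx2
    · rw [q48 hy h]
      revert hx2
      generalize Q x' = t
      revert t
      decide
    · exact absurd (q64 h) hx2
  obtain ⟨y, hy, hn, hm⟩ := hred v
  rw [hy]
  have hz : ∀ a : ℤ, ((a : ℤ) : ZMod 2) = if a % 2 = 0 then 0 else 1 := by
    intro a
    split_ifs with h
    · exact (ZMod.intCast_zmod_eq_zero_iff_dvd a 2).2 (Int.dvd_of_emod_eq_zero h)
    · have h2 : (((a - 1 : ℤ)) : ZMod 2) = 0 := (ZMod.intCast_zmod_eq_zero_iff_dvd (a - 1) 2).2 (by push_cast; omega)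
      push_cast at h2
      exact sub_eq_zero.1 h2
  rw [hz]
  rcases hn with h | h | h | h
  · have : y = 0 := Subtype.ext (sqNorm_eq_zero h)
    rw [this, h00, if_pos (by rw [h] at hm; omega)]
  · rw [q32 h, if_pos (by rw [h] at hm; omega)]
  · rw [h1 h, if_neg (by rw [h] at hm; omega)]
  · rw [q64 h, if_pos (by rw [h] at hm; omega)]

end quad

end Cfsg.Agent.Lib.Golay
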