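import Cfsg.Agent.Lib.Golay.OrbS
import Cfsg.Agent.Lib.Golay.OrbDData
import Cfsg.Agent.Lib.Golay.SimpleD
import Cfsg.Agent.Lib.Golay.OrbUse

/-!
Orbits of the stabiliser of a complementary pair of dodecads on sextets, and of the stabiliser of a
dodecad and one of its points on dodecads.
-/

set_option autoImplicit false

namespace Cfsg.Agent.Lib.Golay

open scoped Pointwise
open Cfsg Finset

/-- the complement of the standard dodecad -/
def dodUc : ℕ := 0xfacca0

/-- the stabiliser of the standard pair of dodecads -/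
def hPair : Subgroup (Equiv.Perm GolayPt) := M24 ⊓ MulAction.stabilizer (Equiv.Perm GolayPt) (fs [dodU, dodUc])

theorem dodUc_eq : dodUc = dodU ^^^ 0xffffff := by decide

theorem fs_pair : fs [dodU, dodUc] = {st dodU, univ \ st dodU} := by
  unfold fs
  rw [dodUc_eq]
  simp only [List.map_cons, List.map_nil, List.toFinset_cons, List.toFinset_nil, st_compl]
  rfl

theorem hPair_fs : ∀ g ∈ hPair, g • fs [dodU, dodUc] = fs [dodU, dodUc] := fun _ hg => hg.2

/-- membership of codes in the stabiliser of the pair -/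
def inP0 (c : ℕ) : Bool := pres c && (act c dodU == dodU || act c dodU == dodUc)

theorem inP0_mem {c : ℕ} (h : inP0 c = true) : pres c = true ∧ pm c ∈ hPair := by
  unfold inP0 at h
  rw [Bool.and_eq_true, Bool.or_eq_true, beq_iff_eq, beq_iff_eq] at h
  have hv := pres_valid h.1
  refine ⟨h.1, pm_mem_M24 h.1, ?_⟩
  show pm c • fs [dodU, dodUc] = fs [dodU, dodUc]
  rw [fs_pair, smul_finset_insert, smul_finset_singleton, ← compl_eq_univ_sdiff, smul_compl', pm_smul_st hv]
  rcases h.2 with h | h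
  · rw [h]
  · rw [h, dodUc_eq, st_compl, compl_compl, pair_comm]

theorem resPS : OrbRes hPair sextets 3 (fun k => [396, 495, 880].getD k 0) :=
  sext_res (la := [dodU, dodUc]) inf_le_left (by decide +kernel) hPair_fs (d := dPS) (V := dPSV) (L := dPSL) (by decide +kernel)
    (mem_of_all (fun _ => inP0_mem) (by decide +kernel)) (by decide +kernel) (by decide) (by decide +kernel)

/-- the class function for dodecads -/
noncomputable def clsMD (y : Finset GolayPt) : ℕ :=
  dMDV.idxOf (2 * (y ∩ st dodU).card + if pt 0 ∈ y then 1 else 0)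

theorem clsMD_inv : ∀ g ∈ m11, ∀ y : Finset GolayPt, clsMD (g • y) = clsMD y := by
  intro g hg y
  unfold clsMD
  have h1 : g • st dodU = st dodU := hg.1.2
  have h2 : g (pt 0) = pt 0 := hg.2
  have h3 := card_smul_inter g y (st dodU)
  rw [h1] at h3
  have h4 : pt 0 ∈ g • y ↔ pt 0 ∈ y := by
    have := smul_mem_smul_iff' g y (pt 0)
    rw [h2] at this
    exact this
  rw [h3]
  by_cases h5 : pt 0 ∈ y
  · rw [if_pos h5, if_pos (h4.2 h5)]
  · rw [if_neg h5, if_neg (fun h => h5 (h4.1 h))]

theorem dMD_roots : ∀ k < dMD.roots.length, dMDV.idxOf (2 * pc (comb (dMD.roots.getD k 0) &&& dodU) +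
    if (comb (dMD.roots.getD k 0)).testBit 0 = true then 1 else 0) = k := by decide +kernel

theorem dMD_gens : ∀ c ∈ dMD.gens, pres c = true ∧ act c dodU = dodU ∧ img c 0 = 0 := by decide +kernel

theorem dMD_ok : allB (descOKE 2576 12 dodTab sameW 12 dMD) 0 12 = true := by decide +kernel

theorem dMD_gens_mem : ∀ c ∈ dMD.gens, pres c = true ∧ pm c ∈ m11 := by
  intro c hc
  obtain ⟨h1, h2, h3⟩ := dMD_gens c hc
  refine ⟨h1, (inM11_iff (pres_valid h1)).1 ?_⟩
  unfold inM11
  rw [h2, h1, h3]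
  decide

theorem orbMD : (∀ y ∈ dodecads, ∀ z ∈ dodecads, clsMD y = clsMD z → ∃ g ∈ m11, g • y = z) ∧
    (∀ k, {y | y ∈ dodecads ∧ clsMD y = k}.ncard = countB (fun e => Nat.blt e 2576 && tabAt dMD.R 4 e == k) 0 12) ∧
    ∀ y ∈ dodecads, clsMD y < 8 := by
  obtain ⟨r1, r2, r3, r4⟩ := enum_orbits dodE (n := 12) (same := sameW) (pw := 12) (d := dMD) (by
    show 2576 ≤ 2 ^ 12; norm_num) dMD_ok (fun c hc => (dMD_gens_mem c hc).2)
    (fun c hc e he e' he' h => sameW_spec (dMD_gens_mem c hc).1 h) clsMD clsMD_inv (by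
      intro k hk
      show dMDV.idxOf (2 * (st (comb (dMD.roots.getD k 0)) ∩ st dodU).card + if pt 0 ∈ st (comb (dMD.roots.getD k 0)) then 1 else 0) = k
      rw [← st_and, card_st]
      have h := dMD_roots k hk
      have e : (pt 0 ∈ st (comb (dMD.roots.getD k 0))) ↔ (comb (dMD.roots.getD k 0)).testBit 0 = true := by
        rw [mem_st, ix_pt (by norm_num)]
      simp only [e]
      exact h)
  refine ⟨r3, r4, ?_⟩
  intro y hy
  exact (r2 y hy).1

theorem cntMD : countB (fun e => Nat.blt e 2576 && tabAt dMD.R 4 e == 3) 0 12 = 165 ∧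
    countB (fun e => Nat.blt e 2576 && tabAt dMD.R 4 e == 4) 0 12 = 330 ∧
    countB (fun e => Nat.blt e 2576 && tabAt dMD.R 4 e == 6) 0 12 = 792 := by decide +kernel

end Cfsg.Agent.Lib.Golay
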