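import Cfsg.Agent.Lib.Golay.OrbS
import Cfsg.Agent.Lib.Golay.OrbQData
import Cfsg.Agent.Lib.Golay.Sets

/-!
Orbits on octads of the stabiliser of an octad and one or two points.
-/

set_option autoImplicit false

namespace Cfsg.Agent.Lib.Golay

open scoped Pointwise
open Cfsg Finset

/-- the stabiliser of the standard octad and two points -/
def hQ (i j : ℕ) : Subgroup (Equiv.Perm GolayPt) := M24 ⊓ MulAction.stabilizer (Equiv.Perm GolayPt) (st oct0) ⊓
  (MulAction.stabilizer (Equiv.Perm GolayPt) (pt i) ⊓ MulAction.stabilizer (Equiv.Perm GolayPt) (pt j))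

noncomputable def clsQ (V : List ℕ) (i j : ℕ) (y : Finset GolayPt) : ℕ :=
  V.idxOf (4 * (y ∩ st oct0).card + ((if pt i ∈ y then 2 else 0) + (if pt j ∈ y then 1 else 0)))

theorem clsQ_inv (V : List ℕ) (i j : ℕ) : ∀ g ∈ hQ i j, ∀ y : Finset GolayPt, clsQ V i j (g • y) = clsQ V i j y := by
  intro g hg y
  unfold clsQ
  have h1 : g • st oct0 = st oct0 := hg.1.2
  have h2 : g (pt i) = pt i := hg.2.1
  have h3 : g (pt j) = pt j := hg.2.2
  have h4 := card_smul_inter g y (st oct0)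
  rw [h1] at h4
  have h5 : pt i ∈ g • y ↔ pt i ∈ y := by
    have := smul_mem_smul_iff' g y (pt i)
    rwa [h2] at this
  have h6 : pt j ∈ g • y ↔ pt j ∈ y := by
    have := smul_mem_smul_iff' g y (pt j)
    rwa [h3] at this
  rw [h4]
  simp only [h5, h6]

theorem resQ {i j : ℕ} (hi : i < 24) (hj : j < 24) {d : Desc} {V : List ℕ}
    (hd : allB (descOKE 759 12 octTab sameW 12 d) 0 10 = true)
    (hg : ∀ c ∈ d.gens, pres c = true ∧ act c oct0 = oct0 ∧ img c i = i ∧ img c j = j)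
    (hr : ∀ k < d.roots.length, V.idxOf (4 * pc (comb (d.roots.getD k 0) &&& oct0) +
      ((if (comb (d.roots.getD k 0)).testBit i = true then 2 else 0) +
        (if (comb (d.roots.getD k 0)).testBit j = true then 1 else 0))) = k) :
    ∀ y ∈ octads, ∀ z ∈ octads, (y ∩ st oct0).card = (z ∩ st oct0).card → (pt i ∈ y ↔ pt i ∈ z) →
      (pt j ∈ y ↔ pt j ∈ z) → ∃ g ∈ M24, g • st oct0 = st oct0 ∧ g (pt i) = pt i ∧ g (pt j) = pt j ∧ g • y = z := by
  have hmem : ∀ c ∈ d.gens, pm c ∈ hQ i j := by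
    intro c hc
    obtain ⟨h1, h2, h3, h4⟩ := hg c hc
    refine ⟨⟨pm_mem_M24 h1, ?_⟩, ?_, ?_⟩
    · exact (pm_mem_stabSet (pres_valid h1) (by decide)).1 (by rw [beq_iff_eq]; exact h2)
    · show pm c (pt i) = pt i
      rw [pm_pt (pres_valid h1) hi, h3]
    · show pm c (pt j) = pt j
      rw [pm_pt (pres_valid h1) hj, h4]
  obtain ⟨r1, r2, r3, r4⟩ := enum_orbits octE (n := 10) (same := sameW) (pw := 12) (d := d) (by
    show 759 ≤ 2 ^ 10; norm_num) hd hmem
    (fun c hc e he e' he' h => sameW_spec (hg c hc).1 h) (clsQ V i j) (clsQ_inv V i j) (by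
      intro k hk
      show V.idxOf (4 * (st (comb (d.roots.getD k 0)) ∩ st oct0).card + ((if pt i ∈ st (comb (d.roots.getD k 0)) then 2 else 0) +
        (if pt j ∈ st (comb (d.roots.getD k 0)) then 1 else 0))) = k
      rw [← st_and, card_st]
      have e1 : (pt i ∈ st (comb (d.roots.getD k 0))) ↔ (comb (d.roots.getD k 0)).testBit i = true := by
        rw [mem_st, ix_pt hi]
      have e2 : (pt j ∈ st (comb (d.roots.getD k 0))) ↔ (comb (d.roots.getD k 0)).testBit j = true := by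
        rw [mem_st, ix_pt hj]
      simp only [e1, e2]
      exact hr k hk)
  intro y hy z hz h1 h2 h3
  obtain ⟨g, hg, he⟩ := r3 y hy z hz (by unfold clsQ; rw [h1]; simp only [h2, h3])
  exact ⟨g, hg.1.1, hg.1.2, hg.2.1, hg.2.2, he⟩

theorem resQA : ∀ y ∈ octads, ∀ z ∈ octads, (y ∩ st oct0).card = (z ∩ st oct0).card → (pt 0 ∈ y ↔ pt 0 ∈ z) →
      (pt 1 ∈ y ↔ pt 1 ∈ z) → ∃ g ∈ M24, g • st oct0 = st oct0 ∧ g (pt 0) = pt 0 ∧ g (pt 1) = pt 1 ∧ g • y = z :=
  resQ (d := dQA) (V := dQAV) (by norm_num) (by norm_num) (by decide +kernel) (by decide +kernel) (by decide +kernel)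

theorem resQB : ∀ y ∈ octads, ∀ z ∈ octads, (y ∩ st oct0).card = (z ∩ st oct0).card → (pt 0 ∈ y ↔ pt 0 ∈ z) →
      (pt 4 ∈ y ↔ pt 4 ∈ z) → ∃ g ∈ M24, g • st oct0 = st oct0 ∧ g (pt 0) = pt 0 ∧ g (pt 4) = pt 4 ∧ g • y = z :=
  resQ (d := dQB) (V := dQBV) (by norm_num) (by norm_num) (by decide +kernel) (by decide +kernel) (by decide +kernel)

theorem resQC : ∀ y ∈ octads, ∀ z ∈ octads, (y ∩ st oct0).card = (z ∩ st oct0).card → (pt 0 ∈ y ↔ pt 0 ∈ z) →
      (pt 0 ∈ y ↔ pt 0 ∈ z) → ∃ g ∈ M24, g • st oct0 = st oct0 ∧ g (pt 0) = pt 0 ∧ g (pt 0) = pt 0 ∧ g • y = z :=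
  resQ (d := dQC) (V := dQCV) (by norm_num) (by norm_num) (by decide +kernel) (by decide +kernel) (by decide +kernel)

theorem resQD : ∀ y ∈ octads, ∀ z ∈ octads, (y ∩ st oct0).card = (z ∩ st oct0).card → (pt 4 ∈ y ↔ pt 4 ∈ z) →
      (pt 4 ∈ y ↔ pt 4 ∈ z) → ∃ g ∈ M24, g • st oct0 = st oct0 ∧ g (pt 4) = pt 4 ∧ g (pt 4) = pt 4 ∧ g • y = z :=
  resQ (d := dQD) (V := dQDV) (by norm_num) (by norm_num) (by decide +kernel) (by decide +kernel) (by decide +kernel)

/-- standard position of an octad, two of its points and a point outside -/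
theorem std_map {o o' : Finset GolayPt} (ho : o ∈ octads) (ho' : o' ∈ octads) {p q a p' q' b : GolayPt}
    (hp : p ∈ o) (hq : q ∈ o) (hpq : p ≠ q) (hp' : p' ∈ o') (hq' : q' ∈ o') (hpq' : p' ≠ q') (ha : a ∉ o) (hb : b ∉ o') :
    ∃ g ∈ M24, g p = p' ∧ g q = q' ∧ g a = b ∧ g • o = o' := by
  have h8 := (mem_octads.1 ho).2
  have h8' := (mem_octads.1 ho').2
  obtain ⟨x, hx1, hx2, hx3⟩ := extend_seq (s := o) (n := 2) (by norm_num) (by omega) (x := seq2 p q) (by
    intro i hi; unfold seq2; split_ifs <;> assumption) (by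
    intro i hi j hj
    have : i = 1 ∧ j = 0 := by omega
    obtain ⟨rfl, rfl⟩ := this
    simpa [seq2] using hpq)
  obtain ⟨y, hy1, hy2, hy3⟩ := extend_seq (s := o') (n := 2) (by norm_num) (by omega) (x := seq2 p' q') (by
    intro i hi; unfold seq2; split_ifs <;> assumption) (by
    intro i hi j hj
    have : i = 1 ∧ j = 0 := by omega
    obtain ⟨rfl, rfl⟩ := this
    simpa [seq2] using hpq')
  obtain ⟨g, hg, h1, h2, h3⟩ := six_out hx3 hy3 ho ho' hx2 hy2 ha hb
  refine ⟨g, hg, ?_, ?_, h2, h3⟩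
  · have := h1 0 (by norm_num)
    rwa [hx1 0 (by norm_num), hy1 0 (by norm_num)] at this
  · have := h1 1 (by norm_num)
    rwa [hx1 1 (by norm_num), hy1 1 (by norm_num)] at this

/-- transfer of a relation from standard position -/
theorem rel_conj {o : Finset GolayPt} {p q : GolayPt} {i j : ℕ} {k : Equiv.Perm GolayPt} (hk : k ∈ M24)
    (hko : k • st oct0 = o) (hp : k (pt i) = p) (hq : k (pt j) = q)
    (h : ∀ y ∈ octads, ∀ z ∈ octads, (y ∩ st oct0).card = (z ∩ st oct0).card → (pt i ∈ y ↔ pt i ∈ z) →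
      (pt j ∈ y ↔ pt j ∈ z) → ∃ g ∈ M24, g • st oct0 = st oct0 ∧ g (pt i) = pt i ∧ g (pt j) = pt j ∧ g • y = z) :
    ∀ y ∈ octads, ∀ z ∈ octads, (o ∩ y).card = (o ∩ z).card → (p ∈ y ↔ p ∈ z) →
      (q ∈ y ↔ q ∈ z) → ∃ g ∈ M24, g • o = o ∧ g p = p ∧ g q = q ∧ g • y = z := by
  intro y hy z hz h1 h2 h3
  have hkp : ∀ s : Finset GolayPt, ∀ x, x ∈ k⁻¹ • s ↔ k x ∈ s := by
    intro s x
    have := smul_mem_smul_iff' k (k⁻¹ • s) x
    rw [smul_inv_smul] at this
    exact this.symm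
  have hc : ∀ s : Finset GolayPt, (k⁻¹ • s ∩ st oct0).card = (o ∩ s).card := by
    intro s
    rw [← card_smul_inter k, smul_inv_smul, hko, Finset.inter_comm]
  obtain ⟨g, hg, e1, e2, e3, e4⟩ := h (k⁻¹ • y) (smul_mem_octads (M24.inv_mem hk) hy) (k⁻¹ • z)
    (smul_mem_octads (M24.inv_mem hk) hz) (by rw [hc, hc, h1]) (by rw [hkp, hkp, hp]; exact h2)
    (by rw [hkp, hkp, hq]; exact h3)
  refine ⟨k * g * k⁻¹, M24.mul_mem (M24.mul_mem hk hg) (M24.inv_mem hk), ?_, ?_, ?_, ?_⟩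
  · rw [mul_smul, mul_smul, ← hko, inv_smul_smul, e1]
  · rw [← hp]
    show k (g (k⁻¹ (k (pt i)))) = k (pt i)
    rw [show k⁻¹ (k (pt i)) = pt i by simp, e2]
  · rw [← hq]
    show k (g (k⁻¹ (k (pt j)))) = k (pt j)
    rw [show k⁻¹ (k (pt j)) = pt j by simp, e3]
  · rw [mul_smul, mul_smul, e4, smul_inv_smul]

/-- transfer of a count from standard position -/
theorem cnt_conj {o : Finset GolayPt} {p q : GolayPt} {i j : ℕ} (hi : i < 24) (hj : j < 24) {k : Equiv.Perm GolayPt} (hk : k ∈ M24)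
    (hko : k • st oct0 = o) (hp : k (pt i) = p) (hq : k (pt j) = q) (a b : Bool) (m n : ℕ)
    (h : countB (fun c => pc (comb c) == 8 && (pc (comb c &&& oct0) == m && ((comb c).testBit i == a && (comb c).testBit j == b))) 0 12 = n) :
    {y : Finset GolayPt | y ∈ octads ∧ (o ∩ y).card = m ∧ (p ∈ y ↔ a = true) ∧ (q ∈ y ↔ b = true)}.ncard = n := by
  have hkp : ∀ s : Finset GolayPt, ∀ x, x ∈ k⁻¹ • s ↔ k x ∈ s := by
    intro s x
    have := smul_mem_smul_iff' k (k⁻¹ • s) x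
    rw [smul_inv_smul] at this
    exact this.symm
  have hc : ∀ s : Finset GolayPt, (k⁻¹ • s ∩ st oct0).card = (o ∩ s).card := by
    intro s
    rw [← card_smul_inter k, smul_inv_smul, hko, Finset.inter_comm]
  have h1 : {y : Finset GolayPt | y ∈ octads ∧ (y ∩ st oct0).card = m ∧ (pt i ∈ y ↔ a = true) ∧ (pt j ∈ y ↔ b = true)}.ncard = n := by
    rw [← h, ← ncard_words_pred (F := fun s => s.card = 8 ∧ ((s ∩ st oct0).card = m ∧ ((pt i ∈ s ↔ a = true) ∧ (pt j ∈ s ↔ b = true))))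
      (f := fun w => pc w == 8 && (pc (w &&& oct0) == m && (w.testBit i == a && w.testBit j == b)))]
    · congr 1
      ext s
      constructor
      · rintro ⟨h1, h2, h3, h4⟩; exact ⟨(mem_octads.1 h1).1, (mem_octads.1 h1).2, h2, h3, h4⟩
      · rintro ⟨h1, h2, h3, h4, h5⟩; exact ⟨mem_octads.2 ⟨h1, h2⟩, h3, h4, h5⟩
    · intro s
      have e1 : (pt i ∈ s ↔ a = true) ↔ ((mk s).testBit i = a) := by
        have : pt i ∈ s ↔ (mk s).testBit i = true := by
          conv_lhs => rw [← st_mk s]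
          rw [mem_st, ix_pt hi]
        rw [this]
        cases (mk s).testBit i <;> cases a <;> simp
      have e2 : (pt j ∈ s ↔ b = true) ↔ ((mk s).testBit j = b) := by
        have : pt j ∈ s ↔ (mk s).testBit j = true := by
          conv_lhs => rw [← st_mk s]
          rw [mem_st, ix_pt hj]
        rw [this]
        cases (mk s).testBit j <;> cases b <;> simp
      rw [Bool.and_eq_true, Bool.and_eq_true, Bool.and_eq_true, beq_iff_eq, beq_iff_eq, beq_iff_eq, beq_iff_eq, card_eq_pc, pc_and_mk, e1, e2]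
  rw [← h1]
  have : {y : Finset GolayPt | y ∈ octads ∧ (o ∩ y).card = m ∧ (p ∈ y ↔ a = true) ∧ (q ∈ y ↔ b = true)} =
      (fun y => k • y) '' {y : Finset GolayPt | y ∈ octads ∧ (y ∩ st oct0).card = m ∧ (pt i ∈ y ↔ a = true) ∧ (pt j ∈ y ↔ b = true)} := by
    ext y
    rw [Set.mem_image]
    constructor
    · rintro ⟨h1, h2, h3, h4⟩
      refine ⟨k⁻¹ • y, ⟨smul_mem_octads (M24.inv_mem hk) h1, ?_, ?_, ?_⟩, smul_inv_smul k y⟩
      · rw [hc]; exact h2
      · rw [hkp, hp]; exact h3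
      · rw [hkp, hq]; exact h4
    · rintro ⟨z, ⟨h1, h2, h3, h4⟩, rfl⟩
      refine ⟨smul_mem_octads hk h1, ?_, ?_, ?_⟩
      · rw [← hc, inv_smul_smul]; exact h2
      · show p ∈ k • z ↔ _
        rw [← hp, smul_mem_smul_iff']; exact h3
      · show q ∈ k • z ↔ _
        rw [← hq, smul_mem_smul_iff']; exact h4
  rw [this, Set.ncard_image_of_injective _ (MulAction.injective k)]

theorem oct0_pts : pt 0 ∈ st oct0 ∧ pt 1 ∈ st oct0 ∧ pt 4 ∉ st oct0 := by
  rw [mem_st, mem_st, mem_st, ix_pt (by norm_num), ix_pt (by norm_num), ix_pt (by norm_num)]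
  decide

theorem exists_out {o : Finset GolayPt} (ho : o ∈ octads) : ∃ p : GolayPt, p ∉ o := by
  by_contra hc
  push Not at hc
  have := Finset.card_le_card (show Finset.univ ⊆ o from fun p _ => hc p)
  rw [Finset.card_univ, card_golayPt, (mem_octads.1 ho).2] at this
  omega

theorem exists_in {o : Finset GolayPt} (ho : o ∈ octads) (p : GolayPt) : ∃ q ∈ o, q ≠ p := by
  by_contra hc
  push Not at hc
  have := Finset.card_le_card (show o ⊆ {p} from fun q hq => mem_singleton.2 (hc q hq))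
  rw [Finset.card_singleton, (mem_octads.1 ho).2] at this
  omega

/-- a count of octads with given incidences with two points -/
theorem cnt_pair {p q : GolayPt} {i j : ℕ} (hi : i < 24) (hj : j < 24) {k : Equiv.Perm GolayPt} (hk : k ∈ M24)
    (hp : k (pt i) = p) (hq : k (pt j) = q) (a b : Bool) (n : ℕ)
    (h : countB (fun c => pc (comb c) == 8 && ((comb c).testBit i == a && (comb c).testBit j == b)) 0 12 = n) :
    {y : Finset GolayPt | y ∈ octads ∧ (p ∈ y ↔ a = true) ∧ (q ∈ y ↔ b = true)}.ncard = n := by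
  have hkp : ∀ s : Finset GolayPt, ∀ x, x ∈ k⁻¹ • s ↔ k x ∈ s := by
    intro s x
    have := smul_mem_smul_iff' k (k⁻¹ • s) x
    rw [smul_inv_smul] at this
    exact this.symm
  have h1 : {y : Finset GolayPt | y ∈ octads ∧ (pt i ∈ y ↔ a = true) ∧ (pt j ∈ y ↔ b = true)}.ncard = n := by
    rw [← h, ← ncard_words_pred (F := fun s => s.card = 8 ∧ ((pt i ∈ s ↔ a = true) ∧ (pt j ∈ s ↔ b = true)))
      (f := fun w => pc w == 8 && (w.testBit i == a && w.testBit j == b))]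
    · congr 1
      ext s
      constructor
      · rintro ⟨h1, h3, h4⟩; exact ⟨(mem_octads.1 h1).1, (mem_octads.1 h1).2, h3, h4⟩
      · rintro ⟨h1, h2, h4, h5⟩; exact ⟨mem_octads.2 ⟨h1, h2⟩, h4, h5⟩
    · intro s
      have e1 : (pt i ∈ s ↔ a = true) ↔ ((mk s).testBit i = a) := by
        have : pt i ∈ s ↔ (mk s).testBit i = true := by
          conv_lhs => rw [← st_mk s]
          rw [mem_st, ix_pt hi]
        rw [this]
        cases (mk s).testBit i <;> cases a <;> simp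
      have e2 : (pt j ∈ s ↔ b = true) ↔ ((mk s).testBit j = b) := by
        have : pt j ∈ s ↔ (mk s).testBit j = true := by
          conv_lhs => rw [← st_mk s]
          rw [mem_st, ix_pt hj]
        rw [this]
        cases (mk s).testBit j <;> cases b <;> simp
      rw [Bool.and_eq_true, Bool.and_eq_true, beq_iff_eq, beq_iff_eq, beq_iff_eq, card_eq_pc, e1, e2]
  rw [← h1]
  have : {y : Finset GolayPt | y ∈ octads ∧ (p ∈ y ↔ a = true) ∧ (q ∈ y ↔ b = true)} =
      (fun y => k • y) '' {y : Finset GolayPt | y ∈ octads ∧ (pt i ∈ y ↔ a = true) ∧ (pt j ∈ y ↔ b = true)} := by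
    ext y
    rw [Set.mem_image]
    constructor
    · rintro ⟨h1, h3, h4⟩
      refine ⟨k⁻¹ • y, ⟨smul_mem_octads (M24.inv_mem hk) h1, ?_, ?_⟩, smul_inv_smul k y⟩
      · rw [hkp, hp]; exact h3
      · rw [hkp, hq]; exact h4
    · rintro ⟨z, ⟨h1, h3, h4⟩, rfl⟩
      refine ⟨smul_mem_octads hk h1, ?_, ?_⟩
      · show p ∈ k • z ↔ _
        rw [← hp, smul_mem_smul_iff']; exact h3
      · show q ∈ k • z ↔ _
        rw [← hq, smul_mem_smul_iff']; exact h4
  rw [this, Set.ncard_image_of_injective _ (MulAction.injective k)]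

end Cfsg.Agent.Lib.Golay
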