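import Cfsg.Agent.Lib.Golay.Search

/-!
Backtrack enumeration with pruning depending on the whole partial product.
-/

set_option autoImplicit false

namespace Cfsg.Agent.Lib.Golay

open scoped Pointwise
open Cfsg

/-- backtrack search below the partial product `p`, with `n` levels to go -/
def srch2 (test : ℕ → Bool) (cut : ℕ → ℕ → Bool) : ℕ → ℕ → List ℕ
  | 0, p => if test p then [p] else []
  | n + 1, p => (tr (6 - n)).flatMap (fun a => let q := comp p a
      if cut (6 - n) q then srch2 test cut n q else [])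

theorem mem_srch2 {S : Set (Equiv.Perm GolayPt)} {test : ℕ → Bool} {cut : ℕ → ℕ → Bool}
    (htest : ∀ c, valid c = true → pm c ∈ S → test c = true)
    (hcut : ∀ g ∈ S, ∀ k < 7, ∀ q, valid q = true → (∀ i ≤ k, pm q (pt (bpt i)) = g (pt (bpt i))) → cut k q = true) :
    ∀ n ≤ 7, ∀ p, valid p = true → ∀ g ∈ S, (pm p)⁻¹ * g ∈ chain (7 - n) →
      ∃ c ∈ srch2 test cut n p, valid c = true ∧ pm c = g := by
  intro n
  induction n with
  | zero =>
    intro _ p hp g hg h
    rw [Nat.sub_zero, chain_seven, Subgroup.mem_bot, inv_mul_eq_one] at h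
    refine ⟨p, ?_, hp, h⟩
    unfold srch2
    rw [if_pos (htest p hp (by rw [h]; exact hg))]
    exact List.mem_singleton.2 rfl
  | succ n ih =>
    intro hn p hp g hg h
    have e : 7 - (n + 1) = 6 - n := by omega
    rw [e] at h
    have hk : 6 - n < 7 := by omega
    obtain ⟨a, ha, h1⟩ := chain_step hk h
    have hav := pres_valid (trOK_spec (tr_ok _ hk) ha).1
    have e2 : 6 - n + 1 = 7 - n := by omega
    have h2 : (pm (comp p a))⁻¹ * g ∈ chain (7 - n) := by
      rw [← e2, pm_comp hp hav, mul_inv_rev, mul_assoc]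
      exact h1
    have hqv := valid_comp hp hav
    obtain ⟨c, hc, hcv, hcg⟩ := ih (by omega) (comp p a) hqv g hg h2
    refine ⟨c, ?_, hcv, hcg⟩
    unfold srch2
    rw [List.mem_flatMap]
    refine ⟨a, ha, ?_⟩
    have h3 : cut (6 - n) (comp p a) = true := by
      refine hcut g hg _ hk _ hqv ?_
      intro i hi
      have hb : ∀ k < 7, ∀ i ≤ k, pt (bpt i) ∈ st (bmask (k + 1)) := by decide +kernel
      have h5 := h2.2 (pt (bpt i)) (by rw [← e2]; exact hb _ hk i hi)
      have h6 : g = pm (comp p a) * ((pm (comp p a))⁻¹ * g) := by group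
      conv_rhs => rw [h6]
      rw [Equiv.Perm.mul_apply, h5]
    simp only [h3, if_true]
    exact hc

theorem srch2_spec {test : ℕ → Bool} {cut : ℕ → ℕ → Bool} : ∀ n ≤ 7, ∀ p, valid p = true → pm p ∈ M24 →
    codeOf (pm p) = p → ∀ c ∈ srch2 test cut n p, valid c = true ∧ test c = true ∧ pm c ∈ M24 ∧ codeOf (pm c) = c := by
  intro n
  induction n with
  | zero =>
    intro _ p hp hm hcan c hc
    unfold srch2 at hc
    split_ifs at hc with h
    · rw [List.mem_singleton] at hc
      rw [hc]; exact ⟨hp, h, hm, hcan⟩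
    · exact absurd hc List.not_mem_nil
  | succ n ih =>
    intro hn p hp hm hcan c hc
    unfold srch2 at hc
    rw [List.mem_flatMap] at hc
    obtain ⟨a, ha, hc⟩ := hc
    have hk : 6 - n < 7 := by omega
    have hap := (trOK_spec (tr_ok _ hk) ha).1
    have hav := pres_valid hap
    dsimp only at hc
    split_ifs at hc with h
    · exact ih (by omega) (comp p a) (valid_comp hp hav)
        (by rw [pm_comp hp hav]; exact M24.mul_mem hm (pm_mem_M24 hap)) (codeOf_pm_comp hp hav) c hc
    · exact absurd hc List.not_mem_nil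

/-- all elements of a set `S ⊆ M24` are found by the search -/
theorem mem_srch2_iff {S : Set (Equiv.Perm GolayPt)} (hS : ∀ g ∈ S, g ∈ M24) {test : ℕ → Bool} {cut : ℕ → ℕ → Bool}
    (htest : ∀ c, valid c = true → pm c ∈ M24 → (pm c ∈ S ↔ test c = true))
    (hcut : ∀ g ∈ S, ∀ k < 7, ∀ q, valid q = true → (∀ i ≤ k, pm q (pt (bpt i)) = g (pt (bpt i))) → cut k q = true)
    (g : Equiv.Perm GolayPt) : g ∈ S ↔ codeOf g ∈ srch2 test cut 7 idc := by
  constructor
  · intro hg
    obtain ⟨c, hc, hcv, rfl⟩ := mem_srch2 (S := S) (test := test) (cut := cut)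
      (fun c hc h => (htest c hc (hS _ h)).1 h) hcut 7 le_rfl idc valid_idc g hg (by
        rw [pm_idc, inv_one, one_mul]; show g ∈ chain 0; rw [chain_zero]; exact hS g hg)
    have h1 := srch2_spec (test := test) (cut := cut) 7 le_rfl idc valid_idc (by rw [pm_idc]; exact M24.one_mem)
      codeOf_idc c hc
    rw [h1.2.2.2]; exact hc
  · intro h
    have h1 := srch2_spec (test := test) (cut := cut) 7 le_rfl idc valid_idc (by rw [pm_idc]; exact M24.one_mem)
      codeOf_idc _ h
    have h2 := (htest _ h1.1 h1.2.2.1).2 h1.2.1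
    rw [pm_codeOf] at h2
    exact h2

theorem srch2_can {test : ℕ → Bool} {cut : ℕ → ℕ → Bool} : ∀ c ∈ srch2 test cut 7 idc, codeOf (pm c) = c :=
  fun c hc => (srch2_spec (test := test) (cut := cut) 7 le_rfl idc valid_idc (by rw [pm_idc]; exact M24.one_mem)
      codeOf_idc c hc).2.2.2

theorem srch2_valid {test : ℕ → Bool} {cut : ℕ → ℕ → Bool} : ∀ c ∈ srch2 test cut 7 idc, valid c = true :=
  fun c hc => (srch2_spec (test := test) (cut := cut) 7 le_rfl idc valid_idc (by rw [pm_idc]; exact M24.one_mem)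
      codeOf_idc c hc).1

theorem ncard_srch2 {S : Set (Equiv.Perm GolayPt)} (hS : ∀ g ∈ S, g ∈ M24) {test : ℕ → Bool} {cut : ℕ → ℕ → Bool}
    (htest : ∀ c, valid c = true → pm c ∈ M24 → (pm c ∈ S ↔ test c = true))
    (hcut : ∀ g ∈ S, ∀ k < 7, ∀ q, valid q = true → (∀ i ≤ k, pm q (pt (bpt i)) = g (pt (bpt i))) → cut k q = true)
    (hnd : (srch2 test cut 7 idc).Nodup) : S.ncard = (srch2 test cut 7 idc).length :=
  ncard_eq_length hnd srch2_can (fun g => mem_srch2_iff hS htest hcut g)

end Cfsg.Agent.Lib.Golay
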