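import Cfsg.Agent.Lib.Golay.Search2

/-!
Cuts for the enumeration of the elements conjugating one given element to another.
-/

set_option autoImplicit false

namespace Cfsg.Agent.Lib.Golay

open scoped Pointwise
open Cfsg

/-- cut for elements `g` with `g * t = u * g` -/
def cutR (t u k q : ℕ) : Bool := (List.range (k + 1)).all (fun i =>
  !(img t (bpt i) == 23 || Nat.blt (img t (bpt i)) k) || img q (img t (bpt i)) == img u (img q (bpt i)))

theorem exists_bpt {k j : ℕ} (h : j = 23 ∨ j < k) : ∃ i ≤ k, bpt i = j := by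
  rcases h with rfl | h
  · exact ⟨0, Nat.zero_le _, rfl⟩
  · exact ⟨j + 1, h, rfl⟩

theorem cutR_spec {t u : ℕ} (ht : valid t = true) (hu : valid u = true) {g : Equiv.Perm GolayPt}
    (hg : g * pm t = pm u * g) {k q : ℕ} (hk : k < 7) (hq : valid q = true)
    (h : ∀ i ≤ k, pm q (pt (bpt i)) = g (pt (bpt i))) : cutR t u k q = true := by
  unfold cutR
  rw [List.all_eq_true]
  intro i hi
  rw [List.mem_range] at hi
  by_cases hc : img t (bpt i) = 23 ∨ img t (bpt i) < k
  · obtain ⟨j, hj, e⟩ := exists_bpt hc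
    have hbi := bpt_lt i (by omega)
    have hbj := bpt_lt j (by omega)
    have h1 : pm q (pt (bpt j)) = pm u (pm q (pt (bpt i))) := by
      rw [h j hj, h i (by omega), e, ← pm_pt ht hbi]
      exact congrArg (fun f : Equiv.Perm GolayPt => f (pt (bpt i))) hg
    rw [pm_pt hq hbj, pm_pt hq hbi, pm_pt hu (valid_lt hq hbi)] at h1
    have h2 := pt_inj (valid_lt hq hbj) (valid_lt hu (valid_lt hq hbi)) h1
    rw [Bool.or_eq_true]
    right
    rw [beq_iff_eq, ← e]
    exact h2
  · rw [Bool.or_eq_true]
    left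
    push Not at hc
    simp only [Bool.not_eq_true', Bool.or_eq_false_iff, beq_eq_false_iff_ne]
    refine ⟨hc.1, ?_⟩
    rw [← Bool.not_eq_true, Nat.blt_eq]
    omega

/-- the relation `g * t = u * g` for codes -/
theorem conj_iff {g t u : ℕ} (hg : valid g = true) (ht : valid t = true) (hu : valid u = true) :
    pm g * pm t = pm u * pm g ↔ comp g t = comp u g := pm_mul_eq hg ht hu hg

end Cfsg.Agent.Lib.Golay
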