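import Cfsg.Agent.Lib.Golay.Search3

/-!
Backtrack enumeration with pruning before composing.
-/

set_option autoImplicit false

namespace Cfsg.Agent.Lib.Golay

open scoped Pointwise
open Cfsg

/-- backtrack search below the partial product `p`, with `n` levels to go -/
def srch4 (test : ℕ → Bool) (cut : ℕ → (ℕ → ℕ) → Bool) : ℕ → ℕ → List ℕ
  | 0, p => if test p then [p] else []
  | n + 1, p => (tr (6 - n)).flatMap (fun a =>
      if cut (6 - n) (fun i => img p (img a i)) then srch4 test cut n (comp p a) else [])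

/-- the points whose images are known at level `k` -/
def known (k i : ℕ) : Bool := i == 23 || Nat.blt i k || k == 6

theorem mem_srch4 {S : Set (Equiv.Perm GolayPt)} {test : ℕ → Bool} {cut : ℕ → (ℕ → ℕ) → Bool}
    (htest : ∀ c, valid c = true → pm c ∈ S → test c = true)
    (hcut : ∀ g ∈ S, ∀ k < 7, ∀ f : ℕ → ℕ, (∀ i < 24, f i < 24) → (∀ i < 24, known k i = true → pt (f i) = g (pt i)) →
      cut k f = true) :
    ∀ n ≤ 7, ∀ p, valid p = true → ∀ g ∈ S, (pm p)⁻¹ * g ∈ chain (7 - n) →
      ∃ c ∈ srch4 test cut n p, valid c = true ∧ pm c = g := by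
  intro n
  induction n with
  | zero =>
    intro _ p hp g hg h
    rw [Nat.sub_zero, chain_seven, Subgroup.mem_bot, inv_mul_eq_one] at h
    refine ⟨p, ?_, hp, h⟩
    unfold srch4
    rw [if_pos (htest p hp (by rw [h]; exact hg))]
    exact List.mem_singleton.2 rfl
  | succ n ih =>
    intro hn p hp g hg h
    have e : 7 - (n + 1) = 6 - n := by omega
    rw [e] at h
    have hk : 6 - n < 7 := by omega
    obtain ⟨a, ha, h1⟩ := chain_step hk h
    have hav := pres_valid (trOK_spec (tr_ok _ hk) ha).1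
    have e2 : 6 - n + 1 = 7 - n := by omega
    have h2 : (pm (comp p a))⁻¹ * g ∈ chain (7 - n) := by
      rw [← e2, pm_comp hp hav, mul_inv_rev, mul_assoc]
      exact h1
    have hqv := valid_comp hp hav
    obtain ⟨c, hc, hcv, hcg⟩ := ih (by omega) (comp p a) hqv g hg h2
    refine ⟨c, ?_, hcv, hcg⟩
    unfold srch4
    rw [List.mem_flatMap]
    refine ⟨a, ha, ?_⟩
    have hf : ∀ i < 24, pt (img p (img a i)) = pm (comp p a) (pt i) := by
      intro i hi
      rw [pm_comp hp hav, Equiv.Perm.mul_apply, pm_pt hav hi, pm_pt hp (valid_lt hav hi)]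
    have h3 : cut (6 - n) (fun i => img p (img a i)) = true := by
      refine hcut g hg _ hk _ (fun i hi => valid_lt hp (valid_lt hav hi)) ?_
      intro i hi24 hi
      show pt (img p (img a i)) = _
      rw [hf i hi24]
      have h6 : g = pm (comp p a) * ((pm (comp p a))⁻¹ * g) := by group
      unfold known at hi
      simp only [Bool.or_eq_true, beq_iff_eq, Nat.blt_eq] at hi
      rcases hi with hi | hi
      · obtain ⟨j, hj, rfl⟩ := exists_bpt hi
        have hb : ∀ k < 7, ∀ i ≤ k, pt (bpt i) ∈ st (bmask (k + 1)) := by decide +kernel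
        have h5 := h2.2 (pt (bpt j)) (by rw [← e2]; exact hb _ hk j hj)
        conv_rhs => rw [h6]
        rw [Equiv.Perm.mul_apply, h5]
      · have hn0 : 7 - n = 7 := by omega
        rw [hn0, chain_seven, Subgroup.mem_bot, inv_mul_eq_one] at h2
        rw [h2]
    simp only [h3, if_true]
    exact hc

theorem srch4_spec {test : ℕ → Bool} {cut : ℕ → (ℕ → ℕ) → Bool} : ∀ n ≤ 7, ∀ p, valid p = true → pm p ∈ M24 →
    codeOf (pm p) = p → ∀ c ∈ srch4 test cut n p, valid c = true ∧ test c = true ∧ pm c ∈ M24 ∧ codeOf (pm c) = c := by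
  intro n
  induction n with
  | zero =>
    intro _ p hp hm hcan c hc
    unfold srch4 at hc
    split_ifs at hc with h
    · rw [List.mem_singleton] at hc
      rw [hc]; exact ⟨hp, h, hm, hcan⟩
    · exact absurd hc List.not_mem_nil
  | succ n ih =>
    intro hn p hp hm hcan c hc
    unfold srch4 at hc
    rw [List.mem_flatMap] at hc
    obtain ⟨a, ha, hc⟩ := hc
    have hk : 6 - n < 7 := by omega
    have hap := (trOK_spec (tr_ok _ hk) ha).1
    have hav := pres_valid hap
    split_ifs at hc with h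
    · exact ih (by omega) (comp p a) (valid_comp hp hav)
        (by rw [pm_comp hp hav]; exact M24.mul_mem hm (pm_mem_M24 hap)) (codeOf_pm_comp hp hav) c hc
    · exact absurd hc List.not_mem_nil

/-- all elements of a set `S ⊆ M24` are found by the search -/
theorem mem_srch4_iff {S : Set (Equiv.Perm GolayPt)} (hS : ∀ g ∈ S, g ∈ M24) {test : ℕ → Bool}
    {cut : ℕ → (ℕ → ℕ) → Bool}
    (htest : ∀ c, valid c = true → pm c ∈ M24 → (pm c ∈ S ↔ test c = true))
    (hcut : ∀ g ∈ S, ∀ k < 7, ∀ f : ℕ → ℕ, (∀ i < 24, f i < 24) → (∀ i < 24, known k i = true → pt (f i) = g (pt i)) →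
      cut k f = true)
    (g : Equiv.Perm GolayPt) : g ∈ S ↔ codeOf g ∈ srch4 test cut 7 idc := by
  constructor
  · intro hg
    obtain ⟨c, hc, hcv, rfl⟩ := mem_srch4 (S := S) (test := test) (cut := cut)
      (fun c hc h => (htest c hc (hS _ h)).1 h) hcut 7 le_rfl idc valid_idc g hg (by
        rw [pm_idc, inv_one, one_mul]; show g ∈ chain 0; rw [chain_zero]; exact hS g hg)
    have h1 := srch4_spec (test := test) (cut := cut) 7 le_rfl idc valid_idc (by rw [pm_idc]; exact M24.one_mem)
      codeOf_idc c hc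
    rw [h1.2.2.2]; exact hc
  · intro h
    have h1 := srch4_spec (test := test) (cut := cut) 7 le_rfl idc valid_idc (by rw [pm_idc]; exact M24.one_mem)
      codeOf_idc _ h
    have h2 := (htest _ h1.1 h1.2.2.1).2 h1.2.1
    rw [pm_codeOf] at h2
    exact h2

theorem srch4_can {test : ℕ → Bool} {cut : ℕ → (ℕ → ℕ) → Bool} : ∀ c ∈ srch4 test cut 7 idc, codeOf (pm c) = c :=
  fun c hc => (srch4_spec (test := test) (cut := cut) 7 le_rfl idc valid_idc (by rw [pm_idc]; exact M24.one_mem)
      codeOf_idc c hc).2.2.2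

theorem srch4_valid {test : ℕ → Bool} {cut : ℕ → (ℕ → ℕ) → Bool} : ∀ c ∈ srch4 test cut 7 idc, valid c = true :=
  fun c hc => (srch4_spec (test := test) (cut := cut) 7 le_rfl idc valid_idc (by rw [pm_idc]; exact M24.one_mem)
      codeOf_idc c hc).1

theorem srch4_mem {test : ℕ → Bool} {cut : ℕ → (ℕ → ℕ) → Bool} : ∀ c ∈ srch4 test cut 7 idc, pm c ∈ M24 :=
  fun c hc => (srch4_spec (test := test) (cut := cut) 7 le_rfl idc valid_idc (by rw [pm_idc]; exact M24.one_mem)
      codeOf_idc c hc).2.2.1

theorem ncard_srch4 {S : Set (Equiv.Perm GolayPt)} (hS : ∀ g ∈ S, g ∈ M24) {test : ℕ → Bool}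
    {cut : ℕ → (ℕ → ℕ) → Bool}
    (htest : ∀ c, valid c = true → pm c ∈ M24 → (pm c ∈ S ↔ test c = true))
    (hcut : ∀ g ∈ S, ∀ k < 7, ∀ f : ℕ → ℕ, (∀ i < 24, f i < 24) → (∀ i < 24, known k i = true → pt (f i) = g (pt i)) →
      cut k f = true)
    (hnd : (srch4 test cut 7 idc).Nodup) : S.ncard = (srch4 test cut 7 idc).length :=
  ncard_eq_length hnd srch4_can (fun g => mem_srch4_iff hS htest hcut g)

/-- cut for elements `g` with `g * t = u * g` -/
def cutG (t u k : ℕ) (f : ℕ → ℕ) : Bool := (if k == 6 then List.range 24 else 23 :: List.range k).all (fun i =>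
  !(known k (img t i)) || f (img t i) == img u (f i))

theorem cutG_spec {t u : ℕ} (ht : valid t = true) (hu : valid u = true) {g : Equiv.Perm GolayPt}
    (hg : g * pm t = pm u * g) {k : ℕ} (hk : k < 7) {f : ℕ → ℕ} (hf : ∀ i < 24, f i < 24)
    (h : ∀ i < 24, known k i = true → pt (f i) = g (pt i)) : cutG t u k f = true := by
  unfold cutG
  rw [List.all_eq_true]
  intro i hi
  have hik : i < 24 ∧ known k i = true := by
    unfold known
    split_ifs at hi with h6
    · rw [beq_iff_eq] at h6
      subst h6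
      exact ⟨List.mem_range.1 hi, by simp⟩
    · rw [List.mem_cons, List.mem_range] at hi
      rcases hi with rfl | hi
      · exact ⟨by norm_num, by simp⟩
      · exact ⟨by omega, by simp only [Bool.or_eq_true, Nat.blt_eq]; left; right; exact hi⟩
  rw [Bool.or_eq_true]
  by_cases hc : known k (img t i) = true
  · right
    have h1 : pt (f (img t i)) = pt (img u (f i)) := by
      rw [h _ (valid_lt ht hik.1) hc, ← pm_pt ht hik.1, ← pm_pt hu (hf i hik.1), h i hik.1 hik.2]
      exact congrArg (fun f : Equiv.Perm GolayPt => f (pt i)) hg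
    rw [beq_iff_eq]
    exact pt_inj (hf _ (valid_lt ht hik.1)) (valid_lt hu (hf i hik.1)) h1
  · left
    simp only [Bool.not_eq_true] at hc
    rw [hc]; rfl

/-- pairwise different natural numbers -/
def nodupB : List ℕ → Bool
  | [] => true
  | a :: l => l.all (fun b => !(Nat.beq a b)) && nodupB l

theorem nodupB_spec : ∀ {l : List ℕ}, nodupB l = true → l.Nodup
  | [], _ => List.nodup_nil
  | a :: l, h => by
    unfold nodupB at h
    rw [Bool.and_eq_true, List.all_eq_true] at h
    rw [List.nodup_cons]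
    refine ⟨fun ha => ?_, nodupB_spec h.2⟩
    have := h.1 a ha
    rw [Nat.beq_refl] at this
    exact absurd this (by decide)

end Cfsg.Agent.Lib.Golay
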